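import Cfsg.Agent.Lib.Helper17.ChevEng

/-!
# A reflective engine for the equivariance of a matrix model of a Chevalley algebra

Data: integer matrices `bZ k` (one for every basis code `k`: `h_k` for `k < rank`, `e_{k - rank}`
otherwise) and matrices `Ep r` of integer polynomials (the root elements `E_r(t)`).  The check
`chkAll` verifies, entry by entry and as an identity of polynomials in `t`, that
`E_r(t) * b_I = (∑ J, x_r(t)_{J I} • b_J) * E_r(t)`; `equiv_of_chk` is its soundness over every field.
-/

set_option autoImplicit false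

namespace Cfsg.Agent.Lib.Helper36.CHO

open Cfsg.Lie Cfsg.Agent.Lib.Helper17

/-! ### Integer polynomials as coefficient lists -/

/-- the value of the polynomial with the listed coefficients (constant term first) -/
def ev {K : Type*} [Field K] (t : K) : List ℤ → K
  | [] => 0
  | c :: p => ((c : ℤ) : K) + t * ev t p

theorem ev_nil {K : Type*} [Field K] (t : K) : ev t [] = 0 := rfl

theorem ev_cons {K : Type*} [Field K] (t : K) (c : ℤ) (p : List ℤ) :
    ev t (c :: p) = ((c : ℤ) : K) + t * ev t p := rfl

/-- sum -/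
def padd : List ℤ → List ℤ → List ℤ
  | [], q => q
  | a :: p, [] => a :: p
  | a :: p, b :: q => Int.add a b :: padd p q

theorem ev_padd {K : Type*} [Field K] (t : K) (p q : List ℤ) :
    ev t (padd p q) = ev t p + ev t q := by
  induction p generalizing q with
  | nil => simp [padd, ev_nil]
  | cons a p ih =>
    cases q with
    | nil => simp [padd, ev_nil]
    | cons b q =>
      have : padd (a :: p) (b :: q) = (a + b) :: padd p q := rfl
      rw [this, ev_cons, ev_cons, ev_cons, ih]
      push_cast
      ring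

/-- multiple -/
def pscale (c : ℤ) : List ℤ → List ℤ
  | [] => []
  | a :: p => Int.mul c a :: pscale c p

theorem ev_pscale {K : Type*} [Field K] (t : K) (c : ℤ) (p : List ℤ) :
    ev t (pscale c p) = ((c : ℤ) : K) * ev t p := by
  induction p with
  | nil => simp [pscale, ev_nil]
  | cons a p ih =>
    have : pscale c (a :: p) = (c * a) :: pscale c p := rfl
    rw [this, ev_cons, ev_cons, ih]
    push_cast
    ring

/-- multiplication by `t ^ m` -/
def pshift : ℕ → List ℤ → List ℤ
  | 0, p => p
  | m + 1, p => 0 :: pshift m p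

theorem ev_pshift {K : Type*} [Field K] (t : K) (m : ℕ) (p : List ℤ) :
    ev t (pshift m p) = t ^ m * ev t p := by
  induction m with
  | zero => simp [pshift]
  | succ m ih =>
    have : pshift (m + 1) p = 0 :: pshift m p := rfl
    rw [this, ev_cons, ih]
    push_cast
    ring

/-- all coefficients vanish -/
def pzero : List ℤ → Bool
  | [] => true
  | a :: p => and (Nat.beq (Int.natAbs a) 0) (pzero p)

theorem ev_of_pzero {K : Type*} [Field K] (t : K) (p : List ℤ) (h : pzero p = true) :
    ev t p = 0 := by
  induction p with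
  | nil => rfl
  | cons a p ih =>
    have h' : (Nat.beq (Int.natAbs a) 0 && pzero p) = true := h
    rw [Bool.and_eq_true] at h'
    have ha : a = 0 := Int.natAbs_eq_zero.mp (Nat.eq_of_beq_eq_true h'.1)
    rw [ev_cons, ih h'.2, ha]
    simp

/-- the sum of `f i` over `i < n` -/
noncomputable def sumN (n : ℕ) (f : ℕ → List ℤ) : List ℤ :=
  Nat.rec [] (fun k ih => padd ih (f k)) n

theorem sumN_succ (n : ℕ) (f : ℕ → List ℤ) : sumN (n + 1) f = padd (sumN n f) (f n) := rfl

theorem ev_sumN {K : Type*} [Field K] (t : K) (n : ℕ) (f : ℕ → List ℤ) :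
    ev t (sumN n f) = ∑ i ∈ Finset.range n, ev t (f i) := by
  induction n with
  | zero => simp [sumN, ev_nil]
  | succ n ih => rw [sumN_succ, ev_padd, ih, Finset.sum_range_succ]

/-- the sum of `f a` over the members of a list -/
noncomputable def sumL {α : Type} (L : List α) (f : α → List ℤ) : List ℤ :=
  List.rec [] (fun a _ ih => padd (f a) ih) L

theorem sumL_cons {α : Type} (a : α) (L : List α) (f : α → List ℤ) :
    sumL (a :: L) f = padd (f a) (sumL L f) := rfl

theorem ev_sumL {K : Type*} [Field K] (t : K) {α : Type} (L : List α) (f : α → List ℤ) :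
    ev t (sumL L f) = (L.map fun a => ev t (f a)).sum := by
  induction L with
  | nil => simp [sumL, ev_nil]
  | cons a L ih => rw [sumL_cons, ev_padd, ih, List.map_cons, List.sum_cons]

/-! ### The model -/

section

variable (D : ChevalleyDatum) (n : ℕ) (bZ : ℕ → ℕ → ℕ → ℤ) (Ep : ℕ → ℕ → ℕ → List ℤ)

/-- the code of a basis index: `h_i ↦ i`, `e_s ↦ rank + s` -/
def code : D.Idx → ℕ := Sum.elim (fun i => i.val) (fun s => D.rank + s.val)

/-- the table, cut off outside the codes -/
def gZ (k i j : ℕ) : ℤ := cond (Nat.blt k (Nat.add D.rank D.nroots)) (bZ k i j) 0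

theorem gZ_lt (k i j : ℕ) (h : k < D.rank + D.nroots) : gZ D bZ k i j = bZ k i j := by
  have : Nat.blt k (Nat.add D.rank D.nroots) = true := Nat.blt_eq.mpr h
  unfold gZ
  rw [this]
  rfl

theorem gZ_ge (k i j : ℕ) (h : D.rank + D.nroots ≤ k) : gZ D bZ k i j = 0 := by
  have : Nat.blt k (Nat.add D.rank D.nroots) = false := by
    rcases hb : Nat.blt k (Nat.add D.rank D.nroots) with _ | _
    · rfl
    · have := Nat.blt_eq.mp hb
      exact absurd this (not_lt.mpr h)
  unfold gZ
  rw [this]
  rfl

/-- entry `(i, j)` of `E_r(t) * b_k`, as a polynomial -/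
noncomputable def lhsP (r k i j : ℕ) : List ℤ :=
  sumN n fun l => pscale (bZ k l j) (Ep r i l)

/-- entry `(i, j)` of `(∑_e c_e t^{a_e} b_{k_e}) * E_r(t)`, as a polynomial -/
noncomputable def rhsP (L : List (ℕ × ℤ × ℕ × ℕ)) (r i j : ℕ) : List ℤ :=
  sumL L fun e => pshift e.2.2.1 (sumN n fun l => pscale (Int.mul e.2.1 (gZ D bZ e.1 i l)) (Ep r l j))

/-- the check of one entry -/
noncomputable def chkEntry (r k i j : ℕ) : Bool :=
  pzero (padd (lhsP n bZ Ep r k i j) (pscale (-1) (rhsP D n bZ Ep (colSV D r 1 1 0 k 1 0 0) r i j)))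

/-- the check of one root and one basis vector -/
noncomputable def chkCol (r k : ℕ) : Bool :=
  allN n fun i => allN n fun j => chkEntry D n bZ Ep r k i j

/-- the check of one root -/
noncomputable def chkRoot (r : ℕ) : Bool :=
  allN (D.rank + D.nroots) fun k => chkCol D n bZ Ep r k

/-- the whole check -/
noncomputable def chkAll : Bool :=
  allN D.nroots fun r => chkRoot D n bZ Ep r

variable (K : Type*) [Field K]

/-- the model matrix with code `k` -/
def bK (k : ℕ) : Matrix (Fin n) (Fin n) K :=
  Matrix.of fun i j => ((bZ k i.val j.val : ℤ) : K)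

/-- the cut-off model matrix with code `k` -/
def gK (k : ℕ) : Matrix (Fin n) (Fin n) K :=
  Matrix.of fun i j => ((gZ D bZ k i.val j.val : ℤ) : K)

/-- the root element `E_r(t)` -/
def EK (r : ℕ) (t : K) : Matrix (Fin n) (Fin n) K :=
  Matrix.of fun i j => ev t (Ep r i.val j.val)

/-- the linear map `v ↦ ∑ J, v J • b_J` -/
def beta (v : D.Idx → K) : Matrix (Fin n) (Fin n) K :=
  ∑ J : D.Idx, v J • bK n bZ K (code D J)

end

section

variable {D : ChevalleyDatum} {n : ℕ} {bZ : ℕ → ℕ → ℕ → ℤ} {Ep : ℕ → ℕ → ℕ → List ℤ}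
  {K : Type*} [Field K]

theorem code_lt (I : D.Idx) : code D I < D.rank + D.nroots := by
  rcases I with i | s
  · have := i.2
    show i.val < _
    omega
  · have := s.2
    show D.rank + s.val < _
    omega

theorem gK_lt (k : ℕ) (h : k < D.rank + D.nroots) : gK D n bZ K k = bK n bZ K k := by
  ext i j
  simp only [gK, bK, Matrix.of_apply]
  rw [gZ_lt D bZ k _ _ h]

theorem gK_ge (k : ℕ) (h : D.rank + D.nroots ≤ k) : gK D n bZ K k = 0 := by
  ext i j
  simp only [gK, Matrix.of_apply, Matrix.zero_apply]
  rw [gZ_ge D bZ k _ _ h]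
  simp

theorem beta_add (v w : D.Idx → K) :
    beta D n bZ K (v + w) = beta D n bZ K v + beta D n bZ K w := by
  unfold beta
  rw [← Finset.sum_add_distrib]
  exact Finset.sum_congr rfl fun J _ => by rw [Pi.add_apply, add_smul]

theorem beta_smul (c : K) (v : D.Idx → K) :
    beta D n bZ K (c • v) = c • beta D n bZ K v := by
  unfold beta
  rw [Finset.smul_sum]
  exact Finset.sum_congr rfl fun J _ => by rw [Pi.smul_apply, smul_eq_mul, mul_smul]

theorem beta_zero : beta D n bZ K (0 : D.Idx → K) = 0 := by
  unfold beta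
  simp

theorem beta_bvec (k : ℕ) : beta D n bZ K (bvec D K k) = gK D n bZ K k := by
  unfold beta
  rw [Fintype.sum_sum_type]
  by_cases hk : k < D.rank
  · rw [bvec_lt k hk, gK_lt k (by omega)]
    have h2 : ∀ s : Fin D.nroots, eH D K k (Sum.inr s) • bK n bZ K (code D (Sum.inr s)) = 0 := by
      intro s
      simp [eH]
    rw [Finset.sum_eq_zero (fun s _ => h2 s), add_zero]
    rw [Finset.sum_eq_single (⟨k, hk⟩ : Fin D.rank)]
    · simp [eH, code]
    · intro b _ hb
      have : b.val ≠ k := fun h => hb (Fin.ext h)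
      simp [eH, this]
    · intro h
      exact absurd (Finset.mem_univ _) h
  · have hb : bvec D K k = eR D K (k - D.rank) := by unfold bvec; rw [if_neg hk]
    rw [hb]
    have h1 : ∀ i : Fin D.rank, eR D K (k - D.rank) (Sum.inl i) • bK n bZ K (code D (Sum.inl i)) = 0 := by
      intro i
      simp [eR]
    rw [Finset.sum_eq_zero (fun i _ => h1 i), zero_add]
    by_cases hk2 : k - D.rank < D.nroots
    · rw [gK_lt k (by omega)]
      rw [Finset.sum_eq_single (⟨k - D.rank, hk2⟩ : Fin D.nroots)]
      · have : D.rank + (k - D.rank) = k := by omega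
        simp [eR, code, this]
      · intro b _ hb
        have : b.val ≠ k - D.rank := fun h => hb (Fin.ext h)
        simp [eR, this]
      · intro h
        exact absurd (Finset.mem_univ _) h
    · rw [gK_ge k (by omega)]
      apply Finset.sum_eq_zero
      intro s _
      have : s.val ≠ k - D.rank := by have := s.2; omega
      simp [eR, this]

theorem beta_svSem (t u : K) (L : List (ℕ × ℤ × ℕ × ℕ)) :
    beta D n bZ K (svSem D K t u L) =
      (L.map fun e => (((e.2.1 : ℤ) : K) * t ^ e.2.2.1 * u ^ e.2.2.2) • gK D n bZ K e.1).sum := by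
  induction L with
  | nil => rw [svSem_nil, beta_zero]; rfl
  | cons e L ih =>
    rw [svSem_cons, beta_add, beta_smul, beta_bvec, ih, List.map_cons, List.sum_cons]

theorem beta_col (r : Fin D.nroots) (t : K) (I : D.Idx) :
    (∑ J : D.Idx, D.xMat K r t J I • bK n bZ K (code D J)) =
      beta D n bZ K ((D.xMat K r t).mulVec (bvec D K (code D I))) := by
  unfold beta
  apply Finset.sum_congr rfl
  intro J _
  congr 1
  rcases I with i | s
  · have : bvec D K (code D (Sum.inl i)) = eH D K i.val := bvec_lt i.val i.2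
    rw [this, mulVec_eH]
  · have : bvec D K (code D (Sum.inr s)) = eR D K s.val := bvec_add s.val
    rw [this, mulVec_eR]

theorem list_sum_apply {m : ℕ} (L : List (Matrix (Fin m) (Fin m) K)) (i j : Fin m) :
    L.sum i j = (L.map fun M => M i j).sum := by
  induction L with
  | nil => rfl
  | cons M L ih => rw [List.sum_cons, Matrix.add_apply, ih, List.map_cons, List.sum_cons]

/-- soundness of the check -/
theorem equiv_of_chk (htab : tabOK D = true) (h : chkAll D n bZ Ep = true) (t : K)
    (r : Fin D.nroots) (I : D.Idx) :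
    EK n Ep K r.val t * bK n bZ K (code D I) =
      (∑ J : D.Idx, D.xMat K r t J I • bK n bZ K (code D J)) * EK n Ep K r.val t := by
  have hk := code_lt I
  unfold chkAll at h
  rw [allN_iff] at h
  have h1 := h r.val r.2
  unfold chkRoot at h1
  rw [allN_iff] at h1
  have h2 := h1 (code D I) hk
  unfold chkCol at h2
  rw [allN_iff] at h2
  have hcol := colSV_sound (F := K) htab r 1 1 0 t 1 (code D I) 1 0 0
  have e1 : (((1 : ℤ) : K) * t ^ 1 * (1 : K) ^ 0) = t := by simp
  have e2 : ((((1 : ℤ) : K) * t ^ 0 * (1 : K) ^ 0) • bvec D K (code D I)) = bvec D K (code D I) := by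
    simp
  rw [e1, e2] at hcol
  rw [beta_col, hcol, beta_svSem]
  ext i j
  have h3 := h2 i.val i.2
  rw [allN_iff] at h3
  have h4 := h3 j.val j.2
  unfold chkEntry at h4
  have h5 := ev_of_pzero t _ h4
  rw [ev_padd, ev_pscale] at h5
  have h6 : ev t (lhsP n bZ Ep r.val (code D I) i.val j.val) =
      ev t (rhsP D n bZ Ep (colSV D r.val 1 1 0 (code D I) 1 0 0) r.val i.val j.val) := by
    have : ((((-1 : ℤ)) : ℤ) : K) = -1 := by push_cast; ring
    rw [this] at h5
    linear_combination h5
  -- the two sides
  have hl : (EK n Ep K r.val t * bK n bZ K (code D I)) i j =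
      ev t (lhsP n bZ Ep r.val (code D I) i.val j.val) := by
    rw [Matrix.mul_apply]
    unfold lhsP
    rw [ev_sumN, ← Fin.sum_univ_eq_sum_range
      (fun l => ev t (pscale (bZ (code D I) l j.val) (Ep r.val i.val l))) n]
    apply Finset.sum_congr rfl
    intro l _
    rw [ev_pscale]
    simp only [EK, bK, Matrix.of_apply]
    ring
  have hr : ((List.map (fun e : ℕ × ℤ × ℕ × ℕ =>
      (((e.2.1 : ℤ) : K) * t ^ e.2.2.1 * (1 : K) ^ e.2.2.2) • gK D n bZ K e.1)
      (colSV D r.val 1 1 0 (code D I) 1 0 0)).sum * EK n Ep K r.val t) i j =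
      ev t (rhsP D n bZ Ep (colSV D r.val 1 1 0 (code D I) 1 0 0) r.val i.val j.val) := by
    unfold rhsP
    rw [ev_sumL]
    generalize colSV D r.val 1 1 0 (code D I) 1 0 0 = L
    induction L with
    | nil => simp
    | cons e L ih =>
      rw [List.map_cons, List.sum_cons, Matrix.add_mul, Matrix.add_apply, ih, List.map_cons,
        List.sum_cons]
      congr 1
      rw [ev_pshift, ev_sumN, Matrix.mul_apply, ← Fin.sum_univ_eq_sum_range
        (fun l => ev t (pscale (Int.mul e.2.1 (gZ D bZ e.1 i.val l)) (Ep r.val l j.val))) n,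
        Finset.mul_sum]
      apply Finset.sum_congr rfl
      intro l _
      rw [ev_pscale]
      have : Int.mul e.2.1 (gZ D bZ e.1 i.val l.val) = e.2.1 * gZ D bZ e.1 i.val l.val := rfl
      rw [this]
      simp only [EK, gK, Matrix.of_apply, Matrix.smul_apply, smul_eq_mul, one_pow, mul_one]
      push_cast
      ring
  rw [hl, hr, h6]

/-- the same identity for matrices indexed by any type in bijection with `Fin n` -/
theorem equiv_of_chk_reindex {ι : Type*} [Fintype ι] [DecidableEq ι] (e : ι ≃ Fin n)
    (htab : tabOK D = true) (h : chkAll D n bZ Ep = true) (t : K)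
    (r : Fin D.nroots) (I : D.Idx) :
    (EK n Ep K r.val t).submatrix e e * (bK n bZ K (code D I)).submatrix e e =
      (∑ J : D.Idx, D.xMat K r t J I • (bK n bZ K (code D J)).submatrix e e) *
        (EK n Ep K r.val t).submatrix e e := by
  have key := congrArg (fun M => Matrix.submatrix M e e) (equiv_of_chk (K := K) htab h t r I)
  rw [← Matrix.submatrix_mul_equiv _ _ e e e, ← Matrix.submatrix_mul_equiv _ _ e e e] at key
  rw [key]
  congr 1
  ext a b
  rw [Matrix.submatrix_apply, Matrix.sum_apply, Matrix.sum_apply]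
  rfl

end

end Cfsg.Agent.Lib.Helper36.CHO
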