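import Cfsg.Agent.Lib.Helper36.CHO.Equiv
import Cfsg.Agent.Lib.Helper17.ChevCFSmall
import Cfsg.Agent.Lib.Helper99.CHO.Defs

/-!
# Package [EQUIV-B2] of project CHO: all roots at once, by the reflective engine
-/

set_option autoImplicit false
set_option maxRecDepth 1000000

namespace Cfsg.Agent.Lib.Helper36.CHO

open Cfsg.Lie Cfsg.Agent.Lib.Helper17 Cfsg.Agent.Lib.Helper99.CHO

universe u

/-- the integer table of the model: Cartan elements, then root vectors -/
def b2bZ (k i j : ℕ) : ℤ :=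
  cond (Nat.blt k 2) (tab3 hListB2 k i j) (tab3 nListB2 (Nat.sub k 2) i j)

/-- the root elements `1 + t N_r + t^2 M_r`, entry by entry -/
def b2Ep (r i j : ℕ) : List ℤ :=
  [cond (Nat.beq i j) 1 0, tab3 nListB2 r i j, tab3 mListB2 r i j]

theorem b2_chk : chkAll chevB2 5 b2bZ b2Ep = true := by decide +kernel

/-- the order `e0 e1 e2 f1 f2` -/
def e5 : Unit ⊕ (Fin 2 ⊕ Fin 2) ≃ Fin 5 :=
  (Equiv.sumCongr (Equiv.ofUnique Unit (Fin 1)) finSumFinEquiv).trans finSumFinEquiv

theorem e5_val (a : Unit ⊕ (Fin 2 ⊕ Fin 2)) : (e5 a).val = ix5 a := by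
  rcases a with a | a | a
  · rfl
  · fin_cases a <;> rfl
  · fin_cases a <;> rfl

theorem beq_of_ne (x y : ℕ) (h : x ≠ y) : Nat.beq x y = false := by
  rcases hb : Nat.beq x y with _ | _
  · rfl
  · exact absurd (Nat.eq_of_beq_eq_true hb) h

theorem beq_self (x : ℕ) : Nat.beq x x = true := by
  rcases hb : Nat.beq x x with _ | _
  · exact absurd rfl (Nat.ne_of_beq_eq_false hb)
  · rfl

theorem ix5_ne (a c : Unit ⊕ (Fin 2 ⊕ Fin 2)) (h : a ≠ c) : ix5 a ≠ ix5 c := by
  intro hh
  apply h
  apply e5.injective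
  apply Fin.ext
  rw [e5_val, e5_val, hh]

theorem b2_E_eq (K : Type u) [Field K] (r : ℕ) (t : K) :
    (EK 5 b2Ep K r t).submatrix e5 e5 = EB2mat K r t := by
  ext a c
  simp only [Matrix.submatrix_apply, EK, Matrix.of_apply, b2Ep, ev_cons, ev_nil, EB2mat,
    Matrix.add_apply, Matrix.smul_apply, NB2, MB2, smul_eq_mul, e5_val, Matrix.one_apply]
  by_cases h : a = c
  · subst h
    rw [beq_self, if_pos rfl]
    simp only [cond_true]
    push_cast
    ring
  · rw [beq_of_ne _ _ (ix5_ne a c h), if_neg h]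
    simp only [cond_false]
    push_cast
    ring

theorem b2_rank : chevB2.rank = 2 := rfl

theorem b2_b_eq (K : Type u) [Field K] (I : chevB2.Idx) :
    (bK 5 b2bZ K (code chevB2 I)).submatrix e5 e5 = bB2 K I := by
  rcases I with i | s
  · ext a c
    have hi : i.val < 2 := i.2
    have h1 : Nat.blt i.val 2 = true := Nat.blt_eq.mpr hi
    simp only [Matrix.submatrix_apply, bK, Matrix.of_apply, code, Sum.elim_inl, b2bZ, h1,
      cond_true, bB2, HB2, e5_val]
  · ext a c
    have h1 : Nat.blt (chevB2.rank + s.val) 2 = false := by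
      rcases hb : Nat.blt (chevB2.rank + s.val) 2 with _ | _
      · rfl
      · have := Nat.blt_eq.mp hb
        rw [b2_rank] at this
        omega
    have h2 : Nat.sub (chevB2.rank + s.val) 2 = s.val := by
      show chevB2.rank + s.val - 2 = s.val
      rw [b2_rank]
      omega
    simp only [Matrix.submatrix_apply, bK, Matrix.of_apply, code, Sum.elim_inr, b2bZ, h1,
      cond_false, h2, bB2, NB2, e5_val]

/-- package [EQUIV-B2-r], every `r` -/
theorem pkgEquivB2 : ∀ r, r < 8 → PkgEquivB2At.{u} r := by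
  intro r _ K _ hr t I
  have key := equiv_of_chk_reindex (K := K) e5 b2_tabOK b2_chk t ⟨r, hr⟩ I
  simp only [b2_b_eq, b2_E_eq] at key
  exact key

end Cfsg.Agent.Lib.Helper36.CHO
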